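import Cfsg.Agent.Lib.KnownSimple.MultM.Math

/-!
# Schur multipliers of the Mathieu groups: conjugates
-/

set_option autoImplicit false

namespace Cfsg.Agent.Lib.KnownSimple.MultM

open Cfsg Cfsg.Spor Cfsg.Agent.Lib.Compute Cfsg.Agent.Lib.Golay Cfsg.Agent.Lib.KnownSimple Cfsg.Agent.Lib.KnownSimple.CodeCalc

/-- The code of a conjugate. -/
theorem conj_code {c ci t : ℕ} (h1 : checkPerm 24 (pc c) = true) (h2 : checkPerm 24 (pc ci) = true)
    (h3 : checkPerm 24 (pc t) = true) (hinv : allBelow (fun i => Nat.beq (pc c (pc ci i)) i) 24 = true) :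
    enc.IsCode (ppm c * ppm t * (ppm c)⁻¹) (fun i => pc c (pc t (pc ci i))) := by
  have e : (ppm c)⁻¹ = ppm ci := by
    rw [inv_eq_iff_mul_eq_one]
    have h4 := CodeCalc.isCode_mul (isCode_ppm h1) (isCode_ppm h2)
    refine CodeCalc.eq_of_agree h4 CodeCalc.isCode_one fun i hi => ?_
    exact Nat.eq_of_beq_eq_true ((allBelow_iff _ _).1 hinv i hi)
  rw [e]
  have h5 := CodeCalc.isCode_mul (isCode_ppm h1) (isCode_ppm h3)
  have h6 := CodeCalc.isCode_mul h5 (isCode_ppm h2)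
  exact h6

end Cfsg.Agent.Lib.KnownSimple.MultM
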